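import Cfsg.Agent.E7P.Frm.Weyl
import Cfsg.Agent.H482.TwoCyc.Poly
import Cfsg.Agent.H390.PslSpec
import Cfsg.Agent.H334.Symp.ModelSetup

/-!
# S5932, LIE-a (helper76): conjugacy in the standard torus of the Lie algebra

* `conj` : **CONJ**, toral vectors which are conjugate under `c` are conjugate under a Weyl element which depends only on `c`;
* `wL_pow` : the exponent of the Weyl group divides `2520`; `nL_pow`, `conj_pow`, `pow_fix`;
* `sl2_fix` : `SL₂(r)`, `r ≥ 11`, acts trivially on every stable toral set.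
-/

set_option autoImplicit false
set_option maxRecDepth 100000

namespace Cfsg.Agent.E7P.La

open Cfsg Cfsg.Lie Matrix Module Polynomial
open Cfsg.Agent.H943.E7V.Block (D1 rho)
open Cfsg.Agent.R2.T1 Cfsg.Agent.E7P.Kf

universe u

variable {K : Type u} [Field K]

theorem cv_one : cv (fun _ => 1) = rho1 := funext fun _ => Int.cast_one

/-- the Borel subgroup does not change the toral part of a toral vector -/
theorem borel_tv {b : Gh K} (hb : b ∈ Pl K rho1) (h : Fin 7 → K) (i : Fin chevE7.rank) :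
    (adM K b *ᵥ tv h - tv h) (Sum.inl i) = 0 := by
  by_contra hi
  have h1 := jump_tv (m := fun _ => 1) (l := h) (fun r hr e => by
    have h2 := bf_cv_rv (fun _ => 1) hr
    rw [cv_one, e, Int.cast_zero] at h2
    exact absurd h2 (rho1_ne hr)) (by rw [cv_one]; exact hb) _ hi
  rw [ac_inl, cv_zero, map_zero] at h1
  exact absurd h1 (by norm_num)

theorem nL_tv_inr [Infinite K] (l : List (Fin 7)) (h : Fin 7 → K) (r : Fin chevE7.nroots) :
    (adM K (nL K l) *ᵥ tv h) (Sum.inr r) = 0 := by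
  by_contra hi
  obtain ⟨j, h1, h2⟩ := exists_col hi
  rcases j with j | s
  · have h3 := wrep_L.mon_nL l _ _ h1
    rw [ac_inl, cv_zero, map_zero] at h3
    exact rv_ne (show (r : ℕ) < 126 from r.2) h3
  · exact h2 rfl

theorem nL_root_inl [Infinite K] (l : List (Fin 7)) {x : chevE7.Idx → K} (hx : ∀ i, x (Sum.inl i) = 0)
    (i : Fin chevE7.rank) : (adM K (nL K l) *ᵥ x) (Sum.inl i) = 0 := by
  by_contra hi
  obtain ⟨j, h1, h2⟩ := exists_col hi
  rcases j with j | s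
  · exact h2 (hx j)
  · have h3 := wrep_L.mon_nL l _ _ h1
    rw [ac_inl, cv_zero] at h3
    exact wL_ne (rv_ne (show (s : ℕ) < 126 from s.2)) h3.symm

/-- the Weyl elements act on the toral vectors -/
theorem nL_tv [Infinite K] (l : List (Fin 7)) (h : Fin 7 → K) : ∃ h', adM K (nL K l) *ᵥ tv h = tv h' :=
  ⟨fun i => (adM K (nL K l) *ᵥ tv h) (Sum.inl i), funext fun i => by
    rcases i with i | r
    · rfl
    · exact nL_tv_inr l h r⟩

/-- **CONJ** -/
theorem conj [Infinite K] (c : Gh K) : ∃ l, ∀ h h', adM K c *ᵥ tv h = tv h' → adM K (nL K l) *ᵥ tv h = tv h' := by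
  obtain ⟨b, b', l, hb, hb', rfl⟩ := bruhat c
  refine ⟨l, fun h h' e => funext fun i => ?_⟩
  rcases i with i | r
  · have h1 : adM K (nL K l) *ᵥ tv h = tv h' + (adM K b⁻¹ *ᵥ tv h' - tv h') -
        adM K (nL K l) *ᵥ (adM K b' *ᵥ tv h - tv h) := by
      rw [← e, mulVec_mul, mulVec_mul, mulVec_inv, mulVec_sub]
      abel
    rw [h1, Pi.sub_apply, Pi.add_apply, borel_tv (inv_mem (hb _ dom_rho1)),
      nL_root_inl l (borel_tv (hb' _ dom_rho1) h), add_zero, sub_zero]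
  · exact nL_tv_inr l h r

/-! ### the exponent of the Weyl group -/

theorem dvd_of_totient {n : ℕ} (hn : 0 < n) (h : Nat.totient n ≤ 7) : n ∣ 2520 := by
  refine (Nat.dvd_iff_prime_pow_dvd_dvd 2520 n).2 fun p k hp hk => ?_
  rcases k with _ | k
  · exact one_dvd _
  have h1 : Nat.totient (p ^ (k + 1)) ≤ 7 := (Nat.le_of_dvd (Nat.totient_pos.2 hn) (Nat.totient_dvd_of_dvd hk)).trans h
  rw [Nat.totient_prime_pow hp k.succ_pos, Nat.succ_sub_one] at h1
  have h2 : p - 1 ≤ 7 := (Nat.le_mul_of_pos_left _ (pow_pos hp.pos k)).trans h1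
  have h3 : 2 ^ k < 2 ^ 3 := by
    have h3 := Nat.pow_le_pow_left hp.two_le k
    have h4 := Nat.le_mul_of_pos_right (p ^ k) (show 0 < p - 1 by have := hp.two_le; omega)
    omega
  have h4 := (Nat.pow_lt_pow_iff_right (by norm_num : 1 < 2)).1 h3
  have h5 : p ≤ 8 := by omega
  have h6 : ∀ p ≤ 8, ∀ k < 3, p.Prime → p ^ k * (p - 1) ≤ 7 → p ^ (k + 1) ∣ 2520 := by decide +kernel
  exact h6 p h5 k h4 hp h1

theorem pow_eq_one_of_rank {V : Type*} [AddCommGroup V] [Module ℚ V] [FiniteDimensional ℚ V] (hV : finrank ℚ V ≤ 7)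
    {R : Module.End ℚ V} {N : ℕ} (hN : 0 < N) (hR : R ^ N = 1) : R ^ 2520 = 1 := by
  obtain ⟨S, h1, h2, h3⟩ := H482.TwoCyc.Poly.exists_poly R hN hR ⊥ fun x hx => by
    rw [(Submodule.mem_bot ℚ).1 hx, map_zero]
    exact zero_mem _
  obtain ⟨q, hq⟩ : ∏ n ∈ S, cyclotomic n ℚ ∣ X ^ 2520 - 1 := by
    rw [← prod_cyclotomic_eq_X_pow_sub_one (by norm_num)]
    refine Finset.prod_dvd_prod_of_subset _ _ _ fun n hn => Nat.mem_divisors.2 ⟨dvd_of_totient (h1 n hn) ?_, by norm_num⟩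
    have h4 := Finset.single_le_sum (f := Nat.totient) (fun _ _ => Nat.zero_le _) hn
    omega
  have h4 := congrArg (aeval R) hq
  rwa [map_mul, show aeval R (∏ n ∈ S, cyclotomic n ℚ) = 0 from LinearMap.ext fun v => (Submodule.mem_bot ℚ).1 (h3 v),
    zero_mul, map_sub, map_pow, aeval_X, map_one, sub_eq_zero] at h4

/-- rational vectors -/
def cq (x : Fin 7 → ℚ) : E := fun i => (x i : ℝ)

/-- the rational model of the Weyl group -/
noncomputable def wq (l : List (Fin 7)) : Module.End ℚ (Fin 7 → ℚ) :=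
  (l.map fun i : Fin 7 => 1 - (LinearMap.proj i).smulRight fun j => (rc (chevE7.simple i) j : ℚ)).prod

theorem cq_wq (l : List (Fin 7)) (x : Fin 7 → ℚ) : cq (wq l x) = wL l (cq x) := by
  induction l with
  | nil => rfl
  | cons i l ih =>
    rw [wL_cons, ← ih, sr_apply]
    funext j
    show ((wq l x j - wq l x i * (rc (chevE7.simple i) j : ℚ) : ℚ) : ℝ) =
      (wq l x j : ℝ) - (wq l x i : ℝ) * (rc (chevE7.simple i) j : ℝ)
    rw [Rat.cast_sub, Rat.cast_mul, Rat.cast_intCast]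

theorem cq_pow (l : List (Fin 7)) (n : ℕ) (x : Fin 7 → ℚ) : cq ((wq l ^ n) x) = (wL l ^ n) (cq x) := by
  induction n with
  | zero => rfl
  | succ n ih => rw [pow_succ', pow_succ', Module.End.mul_apply, Module.End.mul_apply, cq_wq, ih]

theorem exists_wL_pow (l : List (Fin 7)) : ∃ N, 0 < N ∧ wL l ^ N = 1 := by
  choose f hf using exists_wL_wv l
  have h1 : Function.Injective f := fun a b e => wv_inj (by rw [← wL_rev l (wv a), hf, e, ← hf, wL_rev])
  let σ : Equiv.Perm D1 := Equiv.ofBijective f (Finite.injective_iff_bijective.1 h1)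
  have h2 : ∀ (n : ℕ) (a : D1), (wL l ^ n) (wv a) = wv ((σ ^ n) a) := fun n a => by
    induction n with
    | zero => rfl
    | succ n ih =>
      rw [pow_succ', pow_succ', Module.End.mul_apply, ih, hf]
      rfl
  exact ⟨orderOf σ, orderOf_pos σ, ext_wv fun a => by rw [h2, pow_orderOf_eq_one]; rfl⟩

/-- **the exponent of the Weyl group** -/
theorem wL_pow (l : List (Fin 7)) : wL l ^ 2520 = 1 := by
  obtain ⟨N, hN, h⟩ := exists_wL_pow l
  have h1 : wq l ^ 2520 = 1 := pow_eq_one_of_rank (by rw [finrank_fin_fun]) hN (LinearMap.ext fun x => funext fun i => by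
    have h1 := congrFun (cq_pow l N x) i
    rw [h] at h1
    exact Rat.cast_injective (α := ℝ) h1)
  refine ext_wv fun a => ?_
  have h2 : wv a = cq fun i => (wc a i : ℚ) := funext fun i => (Rat.cast_intCast _).symm
  rw [h2, ← cq_pow, h1]
  rfl

theorem mon_nL_pow [Infinite K] (l : List (Fin 7)) (n : ℕ) : Mon wc (rho K) (nL K l ^ n) (wL l ^ n) := by
  induction n with
  | zero =>
    intro i j hij
    rw [pow_zero] at hij
    rw [eq_of_one hij]
    rfl
  | succ n ih =>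
    rw [pow_succ, pow_succ]
    exact ih.mul (wrep_V.mon_nL l)

theorem nL_pow [Infinite K] (l : List (Fin 7)) : ∃ a, nL K l ^ 2520 = Phi K a :=
  mem_T_of_diag fun i j hij => by
    have h := mon_nL_pow l 2520 i j hij
    rw [wL_pow] at h
    exact wv_inj h

theorem conj_pow [Infinite K] {c : Gh K} {C : Set (Fin 7 → K)} (hc : ∀ h ∈ C, ∃ h' ∈ C, adM K c *ᵥ tv h = tv h') :
    ∀ h ∈ C, adM K (c ^ 2520) *ᵥ tv h = tv h := by
  obtain ⟨l, hl⟩ := conj c
  have key : ∀ n : ℕ, ∀ h ∈ C, ∃ h' ∈ C, adM K (c ^ n) *ᵥ tv h = tv h' ∧ adM K (nL K l ^ n) *ᵥ tv h = tv h' := by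
    intro n h hh
    induction n with
    | zero => exact ⟨h, hh, by rw [pow_zero, map_one, one_mulVec], by rw [pow_zero, map_one, one_mulVec]⟩
    | succ n ih =>
      obtain ⟨h1, m1, e1, e2⟩ := ih
      obtain ⟨h2, m2, e3⟩ := hc h1 m1
      exact ⟨h2, m2, by rw [pow_succ', mulVec_mul, e1, e3], by rw [pow_succ', mulVec_mul, e2, hl _ _ e3]⟩
  intro h hh
  obtain ⟨h', -, e1, e2⟩ := key 2520 h hh
  obtain ⟨a, ha⟩ := nL_pow (K := K) l
  rw [e1, ← e2, ha, adM_Phi_tv]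

/-- an element which stabilises a toral set: its `2520`-th power fixes the set pointwise -/
theorem pow_fix [Infinite K] {C : Set (chevE7.Idx → K)} {g c : Gh K} (hg : ∀ x ∈ C, ∃ l, x = adM K g *ᵥ tv l)
    (hc : ∀ x ∈ C, adM K c *ᵥ x ∈ C) : ∀ x ∈ C, adM K (c ^ 2520) *ᵥ x = x := by
  intro x hx
  obtain ⟨l, rfl⟩ := hg x hx
  have h1 := conj_pow (c := g⁻¹ * c * g⁻¹⁻¹) (C := {h | adM K g *ᵥ tv h ∈ C}) (fun h hh => by
    obtain ⟨h', e⟩ := hg _ (hc _ hh)
    exact ⟨h', by rw [Set.mem_ofPred_eq, ← e]; exact hc _ hh, by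
      rw [inv_inv, mulVec_mul, mulVec_mul, e, mulVec_inv]⟩) l hx
  rw [_root_.conj_pow, inv_inv, mulVec_mul, mulVec_mul] at h1
  rw [← mulVec_inv' (adM K) g (adM K (c ^ 2520) *ᵥ _), h1]

theorem num_aux {p n d : ℕ} (hp : p.Prime) (h11 : 11 ≤ p ^ n) (hd : d = Nat.gcd 2 (p ^ n - 1)) (h1 : p ∣ 2520)
    (h2 : (p ^ n - 1) / d ∣ 2520) (h3 : (p ^ n + 1) / d ∣ 2520) : False := by
  have h4 : ∀ m ∈ Nat.divisors 2520, ∀ e ∈ [1, 2], 11 ≤ e * m + 1 → (e * m + 2) / e ∣ 2520 → ∀ s ∈ [2, 3, 5, 7],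
      s ∣ e * m + 1 → ¬ (e * m + 1) ∣ s ^ 13 := by decide +kernel
  have h5 : ∀ s ∈ Nat.divisors 2520, s.Prime → s ∈ [2, 3, 5, 7] := by decide +kernel
  have h6 : d ∣ p ^ n - 1 := hd ▸ Nat.gcd_dvd_right _ _
  have h7 : d ∈ [1, 2] := by
    have h7 := (Nat.dvd_prime Nat.prime_two).1 (Nat.gcd_dvd_left 2 (p ^ n - 1))
    rw [← hd] at h7
    simpa using h7
  obtain ⟨m, hm⟩ := h6
  have h8 : 0 < d := by
    rcases Nat.eq_zero_or_pos d with e | e
    · rw [e] at h7; simp at h7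
    · exact e
  have h9 : p ^ n = d * m + 1 := by omega
  rw [hm, Nat.mul_div_cancel_left _ h8] at h2
  have h10 : n ≤ 13 := by
    by_contra hn
    have h10 : 2 ^ 14 ≤ p ^ n := (Nat.pow_le_pow_left hp.two_le 14).trans (Nat.pow_le_pow_right hp.pos (by omega))
    have h12 := Nat.le_of_dvd (by norm_num) h2
    have h13 : d ≤ 2 := by
      rw [hd]
      exact Nat.gcd_le_left _ two_pos
    have h14 := Nat.mul_le_mul h13 h12
    omega
  refine h4 m (Nat.mem_divisors.2 ⟨h2, by norm_num⟩) d h7 (h9 ▸ h11) (by rwa [h9] at h3) p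
    (h5 p (Nat.mem_divisors.2 ⟨h1, by norm_num⟩) hp) ?_ ?_
  · rw [← h9]
    exact dvd_pow_self p (by rintro rfl; simp at h11)
  · rw [← h9]
    exact pow_dvd_pow p h10

/-- a normal subgroup of `SL₂(r)`, `r ≥ 11`, which contains the `2520`-th powers -/
theorem sl2_top {F : Type*} [Field F] [Fintype F] (h11 : 11 ≤ Fintype.card F)
    {N : Subgroup (SpecialLinearGroup (Fin 2) F)} (hN : N.Normal) (h : ∀ x, x ^ 2520 ∈ N) : N = ⊤ := by
  refine (H334.Symp.El.sl_normal (by omega) N hN).resolve_right fun hc => ?_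
  obtain ⟨p, hp⟩ := CharP.exists F
  obtain ⟨n, h1, h2⟩ := FiniteField.card F p
  have := Fact.mk h1
  have h3 : ∀ m ∈ H390.PslSpec.specSet p (Fintype.card F), m ∣ 2520 := by
    rw [← H390.PslSpec.range_orderOf (by omega)]
    rintro _ ⟨y, rfl⟩
    obtain ⟨x, rfl⟩ := QuotientGroup.mk'_surjective _ y
    exact orderOf_dvd_of_pow_eq_one (by rw [← map_pow]; exact (QuotientGroup.eq_one_iff _).2 (hc (h x)))
  rw [h2] at h3 h11
  exact num_aux h1 h11 rfl (h3 _ (Or.inl dvd_rfl)) (h3 _ (Or.inr (Or.inl dvd_rfl))) (h3 _ (Or.inr (Or.inr dvd_rfl)))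

/-- **`SL₂(r)`, `r ≥ 11`, acts trivially on every stable toral set** -/
theorem sl2_fix [Infinite K] {F : Type*} [Field F] [Fintype F] (h11 : 11 ≤ Fintype.card F)
    (ψ : SpecialLinearGroup (Fin 2) F →* Gh K) {C : Set (chevE7.Idx → K)} {g : Gh K}
    (hg : ∀ x ∈ C, ∃ l, x = adM K g *ᵥ tv l) (hc : ∀ y, ∀ x ∈ C, adM K (ψ y) *ᵥ x ∈ C) :
    ∀ y, ∀ x ∈ C, adM K (ψ y) *ᵥ x = x := by
  let N : Subgroup (SpecialLinearGroup (Fin 2) F) :=
    { carrier := {y | ∀ x ∈ C, adM K (ψ y) *ᵥ x = x}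
      one_mem' := fun x _ => by rw [map_one, map_one, one_mulVec]
      mul_mem' := fun {a b} ha hb x hx => by rw [map_mul ψ, mulVec_mul, hb x hx, ha x hx]
      inv_mem' := fun {a} ha x hx => by
        have h := mulVec_inv (adM K) (ψ a) x
        rwa [ha x hx, ← map_inv] at h }
  have h1 : N = ⊤ := sl2_top h11 ⟨fun a ha b x hx => by
    rw [map_mul ψ, map_mul ψ, mulVec_mul, mulVec_mul, ha _ (hc _ x hx), map_inv, mulVec_inv']⟩ fun y x hx => by
      rw [map_pow]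
      exact pow_fix hg (hc y) x hx
  exact fun y => h1.ge (Subgroup.mem_top y)

end Cfsg.Agent.E7P.La
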